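/-
Counting block upper triangular invertible matrices, for an arbitrary block labelling, and index of
the parabolic subgroup of the general linear group.
-/
import Mathlib

set_option autoImplicit false

namespace Cfsg.Agent.Lib.Parab.Count

open Matrix Finset

variable {F : Type*} [Field F]
variable {ι α : Type*} [Fintype ι] [DecidableEq ι] [Fintype α] [LinearOrder α] (b : ι → α)

/-- Indices strictly above the block diagonal. -/
abbrev UpIdx (b : ι → α) := {p : ι × ι // b p.1 < b p.2}

/-- A block upper triangular invertible matrix decomposes into invertible diagonal blocks and arbitrary upper part. -/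
noncomputable def equivPB :
    {M : Matrix ι ι F // M.BlockTriangular b ∧ M.det ≠ 0} ≃
      (Π a : α, {A : Matrix {i // b i = a} {i // b i = a} F // A.det ≠ 0}) × (UpIdx b → F) where
  toFun M := (fun a => ⟨M.1.toSquareBlock b a, by
      by_cases ha : a ∈ univ.image b
      · have h1 := M.2.2
        rw [M.2.1.det, Finset.prod_ne_zero_iff] at h1
        exact h1 a ha
      · have : IsEmpty {i // b i = a} := ⟨fun i => ha (Finset.mem_image.2 ⟨i.1, mem_univ _, i.2⟩)⟩
        simp⟩, fun p => M.1 p.1.1 p.1.2)
  invFun x := ⟨Matrix.of fun i j =>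
      if h : b i = b j then (x.1 (b j)).1 ⟨i, h⟩ ⟨j, rfl⟩
      else if h' : b i < b j then x.2 ⟨(i, j), h'⟩ else 0, by
      intro i j hij
      have h1 : ¬ b i = b j := (ne_of_lt hij).symm
      have h2 : ¬ b i < b j := not_lt.2 hij.le
      simp [h1, h2], by
      have hB : (Matrix.of fun i j =>
          if h : b i = b j then (x.1 (b j)).1 ⟨i, h⟩ ⟨j, rfl⟩
          else if h' : b i < b j then x.2 ⟨(i, j), h'⟩ else 0 : Matrix ι ι F).BlockTriangular b := by
        intro i j hij
        have h1 : ¬ b i = b j := (ne_of_lt hij).symm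
        have h2 : ¬ b i < b j := not_lt.2 hij.le
        simp [h1, h2]
      rw [hB.det, Finset.prod_ne_zero_iff]
      intro a _
      have : (Matrix.of fun i j =>
          if h : b i = b j then (x.1 (b j)).1 ⟨i, h⟩ ⟨j, rfl⟩
          else if h' : b i < b j then x.2 ⟨(i, j), h'⟩ else 0 : Matrix ι ι F).toSquareBlock b a = (x.1 a).1 := by
        ext i j
        obtain ⟨i, hi⟩ := i
        obtain ⟨j, hj⟩ := j
        subst hj
        simp [Matrix.toSquareBlock_def, hi]
      rw [this]
      exact (x.1 a).2⟩
  left_inv M := by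
    apply Subtype.ext
    ext i j
    by_cases h : b i = b j
    · simp [h, Matrix.toSquareBlock_def]
    · by_cases h' : b i < b j
      · simp [h, h']
      · have h3 : b j < b i := lt_of_le_of_ne (not_lt.1 h') (Ne.symm h)
        simp [h, h', M.2.1 h3]
  right_inv x := by
    apply Prod.ext
    · funext a
      apply Subtype.ext
      ext i j
      obtain ⟨i, hi⟩ := i
      obtain ⟨j, hj⟩ := j
      subst hj
      simp [Matrix.toSquareBlock_def, hi]
    · funext p
      obtain ⟨⟨i, j⟩, hp⟩ := p
      have h1 : ¬ b i = b j := (ne_of_lt hp)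
      simp [h1, show b i < b j from hp]

lemma card_unitDet {κ : Type*} [Fintype κ] [DecidableEq κ] [Fintype F] :
    Nat.card {A : Matrix κ κ F // A.det ≠ 0} =
      ∏ i : Fin (Fintype.card κ), ((Fintype.card F) ^ (Fintype.card κ) - (Fintype.card F) ^ (i : ℕ)) := by
  rw [← Matrix.card_GL_field]
  let e : κ ≃ Fin (Fintype.card κ) := Fintype.equivFin κ
  have h1 : {A : Matrix κ κ F // A.det ≠ 0} ≃ GL κ F :=
    { toFun := fun A => Matrix.GeneralLinearGroup.mkOfDetNeZero A.1 A.2
      invFun := fun g => ⟨g.1, by
        have := (Matrix.isUnit_iff_isUnit_det _).1 g.isUnit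
        exact this.ne_zero⟩
      left_inv := fun A => Subtype.ext rfl
      right_inv := fun g => Units.ext rfl }
  rw [Nat.card_congr h1]
  exact Nat.card_congr (Units.mapEquiv (Matrix.reindexAlgEquiv F F e).toMulEquiv).toEquiv

/-- The `q`-factorial. -/
def qfac (q n : ℕ) : ℕ := ∏ j ∈ Finset.range n, ∑ l ∈ Finset.range (j + 1), q ^ l

lemma prod_gl (q : ℕ) (hq : 1 ≤ q) (m : ℕ) :
    (∏ i : Fin m, (q ^ m - q ^ (i : ℕ))) = q ^ (m.choose 2) * (q - 1) ^ m * qfac q m := by
  rw [Fin.prod_univ_eq_prod_range (fun i => q ^ m - q ^ i) m]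
  induction m with
  | zero => simp [qfac]
  | succ m ih =>
    rw [Finset.prod_range_succ']
    have h1 : ∏ k ∈ Finset.range m, (q ^ (m + 1) - q ^ (k + 1)) = q ^ m * ∏ k ∈ Finset.range m, (q ^ m - q ^ k) := by
      have : ∀ k ∈ Finset.range m, q ^ (m + 1) - q ^ (k + 1) = q * (q ^ m - q ^ k) := by
        intro k _
        rw [pow_succ q m, pow_succ q k, ← Nat.mul_sub_right_distrib, mul_comm]
      rw [Finset.prod_congr rfl this, Finset.prod_mul_distrib, Finset.prod_const, Finset.card_range]
    rw [h1, ih]
    have h2 : q ^ (m + 1) - q ^ 0 = (q - 1) * ∑ l ∈ Finset.range (m + 1), q ^ l := by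
      obtain ⟨r, rfl⟩ : ∃ r, q = r + 1 := ⟨q - 1, by omega⟩
      have := geom_sum_mul_add r (m + 1)
      simp only [Nat.add_sub_cancel, pow_zero]
      rw [← this, Nat.add_sub_cancel, mul_comm]
    have h3 : (m + 1).choose 2 = m + m.choose 2 := by
      rw [Nat.choose_succ_succ' m 1, Nat.choose_one_right]
    have h4 : qfac q (m + 1) = qfac q m * ∑ l ∈ Finset.range (m + 1), q ^ l := by
      simp only [qfac, Finset.prod_range_succ]
    rw [h2, h3, h4]
    ring

/-- The number of block upper triangular invertible matrices. -/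
lemma card_PB [Fintype F] (hq1 : 1 ≤ Fintype.card F) :
    Nat.card {M : Matrix ι ι F // M.BlockTriangular b ∧ M.det ≠ 0} =
      (∏ a : α, (Fintype.card F ^ ((Fintype.card {i // b i = a}).choose 2) * (Fintype.card F - 1) ^ (Fintype.card {i // b i = a})
          * qfac (Fintype.card F) (Fintype.card {i // b i = a}))) * (Fintype.card F) ^ (Fintype.card (UpIdx b)) := by
  rw [Nat.card_congr (equivPB b), Nat.card_prod, Nat.card_pi]
  congr 1
  · apply Finset.prod_congr rfl
    intro a _
    rw [card_unitDet, prod_gl _ hq1]
  · simp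

/-- Counting pairs. -/
lemma card_up_add :
    Fintype.card (UpIdx b) + ∑ a : α, (Fintype.card {i // b i = a}).choose 2 = (Fintype.card ι).choose 2 := by
  classical
  have hsum : ∑ a : α, Fintype.card {i // b i = a} = Fintype.card ι := by
    have := Fintype.card_congr (Equiv.sigmaFiberEquiv b)
    rw [Fintype.card_sigma] at this
    exact this
  have hup : Fintype.card (UpIdx b) = ((univ : Finset (ι × ι)).filter fun p => b p.1 < b p.2).card :=
    Fintype.card_subtype _
  have hdown : ((univ : Finset (ι × ι)).filter fun p => b p.2 < b p.1).card = ((univ : Finset (ι × ι)).filter fun p => b p.1 < b p.2).card := by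
    apply Finset.card_bij (fun p _ => (p.2, p.1))
    · intro p hp
      simpa using hp
    · intro p _ r _ h
      simp only [Prod.mk.injEq] at h
      exact Prod.ext h.2 h.1
    · intro p hp
      refine ⟨(p.2, p.1), by simpa using hp, rfl⟩
  have heq : ((univ : Finset (ι × ι)).filter fun p => b p.1 = b p.2).card = ∑ a : α, (Fintype.card {i // b i = a}) ^ 2 := by
    have h1 : ((univ : Finset (ι × ι)).filter fun p => b p.1 = b p.2) =
        (univ : Finset α).biUnion (fun a => ((univ.filter fun i => b i = a) ×ˢ (univ.filter fun i => b i = a))) := by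
      ext p
      simp only [mem_filter, mem_univ, true_and, mem_biUnion, mem_product]
      constructor
      · intro h
        exact ⟨b p.2, h, rfl⟩
      · rintro ⟨a, h1, h2⟩
        rw [h1, h2]
    rw [h1, Finset.card_biUnion]
    · apply Finset.sum_congr rfl
      intro a _
      rw [Finset.card_product, Fintype.card_subtype, sq]
    · intro a _ c _ hac
      change Disjoint _ _
      rw [Finset.disjoint_left]
      intro p hp hp2
      simp only [mem_product, mem_filter, mem_univ, true_and] at hp hp2
      exact hac (hp.1.symm.trans hp2.1)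
  have htot : ((univ : Finset (ι × ι)).filter fun p => b p.1 < b p.2).card + ((univ : Finset (ι × ι)).filter fun p => b p.2 < b p.1).card
      + ((univ : Finset (ι × ι)).filter fun p => b p.1 = b p.2).card = (Fintype.card ι) ^ 2 := by
    have h2 : (univ : Finset (ι × ι)).card = (Fintype.card ι) ^ 2 := by
      rw [Finset.card_univ, Fintype.card_prod, sq]
    rw [← h2, ← Finset.card_union_of_disjoint, ← Finset.card_union_of_disjoint]
    · congr 1
      ext p
      simp only [mem_union, mem_filter, mem_univ, true_and, iff_true]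
      rcases lt_trichotomy (b p.1) (b p.2) with h | h | h
      · exact Or.inl (Or.inl h)
      · exact Or.inr h
      · exact Or.inl (Or.inr h)
    · rw [Finset.disjoint_left]
      intro p hp hp2
      simp only [mem_union, mem_filter, mem_univ, true_and] at hp hp2
      rcases hp with h | h
      · exact (ne_of_lt h) hp2
      · exact (ne_of_lt h).symm hp2
    · rw [Finset.disjoint_left]
      intro p hp hp2
      simp only [mem_filter, mem_univ, true_and] at hp hp2
      exact lt_asymm hp hp2
  have hch : ∀ m : ℕ, m ^ 2 = 2 * m.choose 2 + m := by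
    intro m
    induction m with
    | zero => simp
    | succ m ih =>
      rw [Nat.choose_succ_succ' m 1, Nat.choose_one_right]
      nlinarith
  rw [hdown, heq] at htot
  rw [hup]
  have h5 := hch (Fintype.card ι)
  have h6 : ∑ a : α, (Fintype.card {i // b i = a}) ^ 2 = 2 * ∑ a : α, (Fintype.card {i // b i = a}).choose 2 + Fintype.card ι := by
    rw [← hsum, Finset.mul_sum, ← Finset.sum_add_distrib]
    exact Finset.sum_congr rfl (fun a _ => hch _)
  omega

/-- Numerical consequence: index formula. -/
theorem index_mul_qfac [Fintype F] (H : Subgroup (GL ι F))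
    (hH : ∀ g : GL ι F, g ∈ H ↔ g.1.BlockTriangular b) :
    Nat.card (GL ι F ⧸ H) * ∏ a : α, qfac (Fintype.card F) (Fintype.card {i // b i = a}) =
      qfac (Fintype.card F) (Fintype.card ι) := by
  classical
  set q := Fintype.card F with hq
  have hq2 : 2 ≤ q := Fintype.one_lt_card
  have hq1 : 1 ≤ q := by omega
  have hsum : ∑ a : α, Fintype.card {i // b i = a} = Fintype.card ι := by
    have := Fintype.card_congr (Equiv.sigmaFiberEquiv b)
    rw [Fintype.card_sigma] at this
    exact this
  have h1 : Nat.card H = Nat.card {M : Matrix ι ι F // M.BlockTriangular b ∧ M.det ≠ 0} := by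
    apply Nat.card_congr
    exact
      { toFun := fun g => ⟨g.1.1, (hH g.1).1 g.2, ((Matrix.isUnit_iff_isUnit_det _).1 g.1.isUnit).ne_zero⟩
        invFun := fun M => ⟨Matrix.GeneralLinearGroup.mkOfDetNeZero M.1 M.2.2, (hH _).2 M.2.1⟩
        left_inv := fun g => Subtype.ext (Units.ext rfl)
        right_inv := fun M => Subtype.ext rfl }
  have h2 : Nat.card (GL ι F) = q ^ ((Fintype.card ι).choose 2) * (q - 1) ^ (Fintype.card ι) * qfac q (Fintype.card ι) := by
    have h3 : Nat.card (GL ι F) = Nat.card {A : Matrix ι ι F // A.det ≠ 0} := by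
      apply Nat.card_congr
      exact
        { toFun := fun g => ⟨g.1, ((Matrix.isUnit_iff_isUnit_det _).1 g.isUnit).ne_zero⟩
          invFun := fun M => Matrix.GeneralLinearGroup.mkOfDetNeZero M.1 M.2
          left_inv := fun g => Units.ext rfl
          right_inv := fun M => Subtype.ext rfl }
    rw [h3, card_unitDet, prod_gl _ hq1]
  have h4 := Subgroup.card_eq_card_quotient_mul_card_subgroup H
  rw [h1, card_PB b hq1, h2] at h4
  rw [← hq] at h4
  simp only [Finset.prod_mul_distrib, Finset.prod_pow_eq_pow_sum] at h4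
  rw [hsum, ← card_up_add b] at h4
  have hpos : 0 < q ^ (Fintype.card (UpIdx b) + ∑ a : α, (Fintype.card {i // b i = a}).choose 2) * (q - 1) ^ (Fintype.card ι) :=
    Nat.mul_pos (Nat.pow_pos (by omega)) (Nat.pow_pos (by omega))
  apply Nat.eq_of_mul_eq_mul_left hpos
  rw [h4]
  ring

end Cfsg.Agent.Lib.Parab.Count
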